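import Cfsg.Agent.Lib.Golay.SimpleCrit

/-!
Kernel certificates for the order and the simplicity of rank three permutation groups acting on a
graph that is given by the bit masks of its rows.
-/

set_option autoImplicit false

namespace Cfsg.Lib.Rank3

open Equiv Cfsg.Lib.PC

/-- a binary tree of naturals -/
inductive BT : Type
  | leaf : ℕ → BT
  | node : BT → BT → BT

/-- lookup in a binary tree along the binary digits of the index -/
noncomputable def BT.get (t : BT) : ℕ → ℕ :=
  BT.rec (motive := fun _ => ℕ → ℕ) (fun x _ => x)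
    (fun _ _ l r i => Bool.rec (motive := fun _ => ℕ) (r (Nat.div i 2)) (l (Nat.div i 2))
      (Nat.beq (Nat.mod i 2) 0)) t

/-- the rows `lo ≤ i < lo + len` are mapped onto rows -/
def invChk (k n p : ℕ) (row : ℕ → ℕ) (lo len : ℕ) : Bool :=
  allLt len fun i => force (row (app k p (Nat.add lo i))) fun r =>
    Nat.beq (pre k n p r) (row (Nat.add lo i))

/-- the property established by `invChk` -/
def InvOn (k n p : ℕ) (row : ℕ → ℕ) (m : ℕ) : Prop :=
  ∀ i, i < m → ∀ j, j < n → (row i).testBit j = true →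
    (row (app k p i)).testBit (app k p j) = true

theorem InvOn.zero (k n p : ℕ) (row : ℕ → ℕ) : InvOn k n p row 0 :=
  fun _ h => absurd h (by simp)

theorem InvOn.step {k n p : ℕ} {row : ℕ → ℕ} {m : ℕ} (h : InvOn k n p row m) (len m' : ℕ)
    (hc : invChk k n p row m len = true) (hm : m' = m + len) : InvOn k n p row m' := by
  intro i hi j hjn hj
  by_cases h1 : i < m
  · exact h i h1 j hjn hj
  · obtain ⟨d, rfl⟩ := Nat.exists_eq_add_of_le (not_lt.mp h1)
    have h2 := (allLt_iff _ _).mp hc d (by omega)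
    rw [force_eq] at h2
    have h3 : pre k n p (row (app k p (m + d))) = row (m + d) := Nat.eq_of_beq_eq_true h2
    rwa [← h3, testBit_pre _ _ _ _ _ hjn] at hj

/-- `f i` for all `i < n`, with shallow recursion -/
def allLt2 (n : ℕ) (f : ℕ → Bool) : Bool :=
  allLt (Nat.succ (Nat.div n 32)) fun a => allLt 32 fun b =>
    force (Nat.add (Nat.mul 32 a) b) fun v =>
      Bool.rec (motive := fun _ => Bool) (f v) true (Nat.ble n v)

theorem allLt2_spec {n : ℕ} {f : ℕ → Bool} (h : allLt2 n f = true) (i : ℕ) (hi : i < n) :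
    f i = true := by
  have h1 := (allLt_iff _ _).mp ((allLt_iff _ _).mp h (i / 32) (by
    show i / 32 < n / 32 + 1
    omega)) (i % 32) (Nat.mod_lt _ (by norm_num))
  rw [force_eq, show Nat.add (Nat.mul 32 (i / 32)) (i % 32) = i from Nat.div_add_mod i 32,
    show Nat.ble n i = false from by
      rw [← Bool.not_eq_true, Nat.ble_eq]; omega] at h1
  exact h1

/-- the mask of all points -/
def full (n : ℕ) : ℕ := Nat.pred (Nat.pow 2 n)

theorem testBit_full (n j : ℕ) : (full n).testBit j = decide (j < n) :=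
  Nat.testBit_two_pow_sub_one n j

/-- the points related to `f` in the same way as `v` -/
def cell (n : ℕ) (row : ℕ → ℕ) (v f : ℕ) : ℕ :=
  Bool.rec (motive := fun _ => ℕ)
    (Nat.land (Bool.rec (motive := fun _ => ℕ) (Nat.xor (full n) (row f)) (row f) (tb (row f) v))
      (Nat.xor (full n) (Nat.shiftLeft 1 f)))
    (Nat.shiftLeft 1 f) (Nat.beq v f)

/-- the points related to all points of `F` in the same way as `v` -/
def cellAll (n : ℕ) (row : ℕ → ℕ) (v : ℕ) (F : List ℕ) : ℕ :=
  List.rec (motive := fun _ => ℕ) (full n) (fun f _ acc => Nat.land (cell n row v f) acc) F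

/-- upper bound for the order of the pointwise stabiliser of `F` (zero: the check failed) -/
def ub (n : ℕ) (row : ℕ → ℕ) (B : List ℕ) : List ℕ → ℕ :=
  List.rec (motive := fun _ => List ℕ → ℕ)
    (fun F => Bool.rec (motive := fun _ => ℕ) 0 1
      (allLt2 n fun v => Nat.beq (cellAll n row v F) (Nat.shiftLeft 1 v)))
    (fun b _ rc F => Bool.rec (motive := fun _ => ℕ) 0
      (Nat.mul (force (cellAll n row b F) (pop n)) (rc (b :: F))) (Nat.blt b n)) B

/-- the code fixes the points of `F` -/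
def fixAll (k p : ℕ) (F : List ℕ) : Bool := allL F fun f => Nat.beq (app k p f) f

/-- the entries of `L` at the positions `I` -/
def sel (d : ℕ) (L I : List ℕ) : List ℕ :=
  List.rec (motive := fun _ => List ℕ) [] (fun i _ acc => nth d L i :: acc) I

/-- lower bound for the order of the pointwise stabiliser of `F` -/
def lb (k n : ℕ) (L : List ℕ) (lv : List (ℕ × List ℕ × ℕ)) : List ℕ → ℕ :=
  List.rec (motive := fun _ => List ℕ → ℕ) (fun _ => 1)
    (fun x _ rc F => Bool.rec (motive := fun _ => ℕ) 0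
      (Nat.mul (force (orbMask k n (sel (idc k n) L x.2.1) x.2.2 (Nat.shiftLeft 1 x.1)) (pop n))
        (rc (x.1 :: F)))
      (Nat.blt x.1 n && allL (sel (idc k n) L x.2.1) fun p => fixAll k p F)) lv

/-- number of moved points -/
def moved (k n p : ℕ) : ℕ :=
  pop n (mk 1 n fun i => Bool.rec (motive := fun _ => ℕ) 1 0 (Nat.beq (app k p i) i))

/-- the rank three check -/
def rk3 (k n : ℕ) (L I0 I1 : List ℕ) (t b c d : ℕ) : Bool :=
  Nat.blt b n &&
  Nat.beq (orbMask k n (sel (idc k n) L I0) t (Nat.shiftLeft 1 b)) (full n) &&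
  allL (sel (idc k n) L I1) (fun p => fixAll k p [b]) &&
  force (Nat.lor (Nat.shiftLeft 1 b) (orbMask k n (sel (idc k n) L I1) t (Nat.shiftLeft 1 c)))
    fun D1 =>
  force (Nat.lor (Nat.shiftLeft 1 b) (orbMask k n (sel (idc k n) L I1) t (Nat.shiftLeft 1 d)))
    fun D2 =>
  Nat.beq (Nat.lor D1 D2) (full n) && Bool.not (Nat.beq (Nat.mod n (pop n D1)) 0) &&
    Bool.not (Nat.beq (Nat.mod n (pop n D2)) 0)

variable {α : Type*} {n : ℕ} (E : Enc α n)

/-- the set of points described by a mask -/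
def ms (m : ℕ) : Set α := {a | m.testBit (E.idx a) = true}

theorem ncard_ms (m : ℕ) : (ms E m).ncard = pop n m := by
  rw [pop_eq, ← Set.ncard_coe_finset,
    ← Set.ncard_image_of_injective _ (f := E.idx) fun _ _ h => E.idx_inj h]
  congr 1
  ext i
  simp only [Set.mem_image, Finset.coe_filter, Finset.mem_range, Set.mem_ofPred_eq, ms]
  constructor
  · rintro ⟨a, ha, rfl⟩
    exact ⟨E.idx_lt a, ha⟩
  · rintro ⟨h1, h2⟩
    exact ⟨E.pt i, by rwa [E.idx_pt i h1], E.idx_pt i h1⟩

theorem ms_full : ms E (full n) = Set.univ :=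
  Set.eq_univ_of_forall fun a => by simp [ms, testBit_full, E.idx_lt]

include E in
theorem card_eq_enc : Nat.card α = n := by
  rw [← Set.ncard_univ, ← ms_full E, ncard_ms, pop_eq]
  simp only [testBit_full, decide_eq_true_eq]
  rw [Finset.filter_true_of_mem fun _ h => Finset.mem_range.mp h, Finset.card_range]

/-- the permutations fixing the points with index in `F` -/
def fixG (F : List ℕ) : Subgroup (Perm α) where
  carrier := {g | ∀ a, E.idx a ∈ F → g a = a}
  one_mem' := fun _ _ => rfl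
  mul_mem' := fun hg hh a ha => by rw [Perm.mul_apply, hh a ha, hg a ha]
  inv_mem' := fun hg a ha => by rw [Perm.inv_eq_iff_eq, hg a ha]

theorem fixG_nil : fixG E [] = ⊤ := eq_top_iff.mpr fun _ _ _ h => absurd h (by simp)

theorem fixG_cons {b : ℕ} (hb : b < n) (F : List ℕ) (g : Perm α) :
    g ∈ fixG E (b :: F) ↔ g ∈ fixG E F ∧ g (E.pt b) = E.pt b := by
  constructor
  · intro h
    exact ⟨fun a ha => h a (List.mem_cons_of_mem _ ha), h _ (by
      rw [E.idx_pt b hb]; exact List.mem_cons_self)⟩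
  · rintro ⟨h1, h2⟩ a ha
    rcases List.mem_cons.mp ha with h | h
    · rw [← E.pt_idx a, h, h2]
    · exact h1 a h

variable [Finite α]

/-- the automorphism group of the relation given by the rows -/
def autG (row : ℕ → ℕ) : Subgroup (Perm α) where
  carrier := {g | ∀ a b, (row (E.idx a)).testBit (E.idx b) = true →
    (row (E.idx (g a))).testBit (E.idx (g b)) = true}
  one_mem' := fun _ _ h => h
  mul_mem' := fun hg hh a b h => hg _ _ (hh a b h)
  inv_mem' := fun {g} hg => by
    have h1 : ∀ m : ℕ, ∀ a b, (row (E.idx a)).testBit (E.idx b) = true →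
        (row (E.idx ((g ^ m) a))).testBit (E.idx ((g ^ m) b)) = true := by
      intro m
      induction m with
      | zero => exact fun _ _ h => h
      | succ m ih => intro a b h; rw [pow_succ']; exact hg _ _ (ih a b h)
    have h2 : g⁻¹ = g ^ (orderOf g - 1) := by
      rw [inv_eq_iff_mul_eq_one, ← pow_succ', Nat.sub_add_cancel (orderOf_pos g), pow_orderOf_eq_one]
    rw [h2]
    exact h1 _

variable {E}

theorem mem_autG {k p : ℕ} {row : ℕ → ℕ} {g : Perm α} (hg : Rep E k p g) (h : InvOn k n p row n) :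
    g ∈ autG E row := fun a b hab => by
  rw [hg, hg]; exact h _ (E.idx_lt a) _ (E.idx_lt b) hab

theorem cell_spec {row : ℕ → ℕ} {g : Perm α} (hg : g ∈ autG E row) (a : α) {f : ℕ} (hf : f < n)
    (h : g (E.pt f) = E.pt f) : (cell n row (E.idx a) f).testBit (E.idx (g a)) = true := by
  unfold cell
  cases h1 : Nat.beq (E.idx a) f
  · have h2 : E.idx a ≠ f := Nat.ne_of_beq_eq_false h1
    have h3 : f ≠ E.idx (g a) := fun h3 => h2 (by
      have : g a = g (E.pt f) := by rw [h, h3, E.pt_idx]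
      rw [g.injective this, E.idx_pt f hf])
    show (_ &&& (full n ^^^ 1 <<< f)).testBit _ = true
    rw [Nat.testBit_and, Nat.testBit_xor, testBit_full, Nat.one_shiftLeft,
      Nat.testBit_two_pow_of_ne h3, decide_eq_true (E.idx_lt _)]
    cases h4 : tb (row f) (E.idx a)
    · show ((full n ^^^ row f).testBit _ && _) = true
      rw [Nat.testBit_xor, testBit_full, decide_eq_true (E.idx_lt _)]
      cases h5 : (row f).testBit (E.idx (g a))
      · rfl
      · have h6 := (autG E row).inv_mem hg (E.pt f) (g a) (by rwa [E.idx_pt f hf])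
        rw [show g⁻¹ (g a) = a by simp, show g⁻¹ (E.pt f) = E.pt f by rw [Perm.inv_eq_iff_eq, h],
          E.idx_pt f hf, ← tb_eq, h4] at h6
        exact absurd h6 (by simp)
    · show ((row f).testBit _ && _) = true
      have h6 := hg (E.pt f) a (by rwa [E.idx_pt f hf, ← tb_eq])
      rw [h, E.idx_pt f hf] at h6
      rw [h6]; rfl
  · have h2 : E.idx a = f := Nat.eq_of_beq_eq_true h1
    show (1 <<< f).testBit _ = true
    rw [← E.pt_idx a, h2, h, E.idx_pt f hf, Nat.one_shiftLeft, Nat.testBit_two_pow_self]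

theorem cellAll_spec {row : ℕ → ℕ} {g : Perm α} (hg : g ∈ autG E row) (a : α) {F : List ℕ}
    (hF : ∀ f ∈ F, f < n) (h : g ∈ fixG E F) :
    (cellAll n row (E.idx a) F).testBit (E.idx (g a)) = true := by
  induction F with
  | nil => show (full n).testBit _ = true; rw [testBit_full, decide_eq_true (E.idx_lt _)]
  | cons f F ih =>
    have hf := hF f List.mem_cons_self
    rw [fixG_cons E hf] at h
    show (cell n row (E.idx a) f &&& cellAll n row (E.idx a) F).testBit _ = true
    rw [Nat.testBit_and, cell_spec hg a hf h.2, ih (fun f hf => hF f (List.mem_cons_of_mem _ hf)) h.1]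
    rfl

theorem card_eq_orb (G K : Subgroup (Perm α)) (a : α) (hK : ∀ g, g ∈ K ↔ g ∈ G ∧ g a = a) :
    Nat.card G = {x | ∃ g ∈ G, g a = x}.ncard * Nat.card K := by
  classical
  have := Fintype.ofFinite α
  rw [card_eq_of_orbit G K a (Finset.univ.filter fun x => ∃ g ∈ G, g a = x) hK
    (fun g hg => by simpa using ⟨g, hg, rfl⟩) fun x hx => by simpa using hx,
    ← Set.ncard_coe_finset]
  simp

theorem card_le_ub {row : ℕ → ℕ} (B F : List ℕ) (hF : ∀ f ∈ F, f < n) (h : ub n row B F ≠ 0) :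
    Nat.card ↥(autG E row ⊓ fixG E F) ≤ ub n row B F := by
  induction B generalizing F with
  | nil =>
    have e : ub n row [] F = Bool.rec (motive := fun _ => ℕ) 0 1
      (allLt2 n fun v => Nat.beq (cellAll n row v F) (Nat.shiftLeft 1 v)) := rfl
    rw [e] at h ⊢
    cases h1 : allLt2 n fun v => Nat.beq (cellAll n row v F) (Nat.shiftLeft 1 v)
    · rw [h1] at h; exact absurd rfl h
    · show _ ≤ 1
      rw [Subgroup.card_le_one_iff_eq_bot, eq_bot_iff]
      intro g hg
      refine Subgroup.mem_bot.mpr (Perm.ext fun a => E.idx_inj ?_)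
      have h2 := cellAll_spec hg.1 a hF hg.2
      rw [Nat.eq_of_beq_eq_true (allLt2_spec h1 _ (E.idx_lt a))] at h2
      have h3 : (1 <<< E.idx a).testBit (E.idx (g a)) = true := h2
      rw [Nat.one_shiftLeft, Nat.testBit_two_pow, decide_eq_true_eq] at h3
      exact h3.symm
  | cons b B ih =>
    have e : ub n row (b :: B) F = Bool.rec (motive := fun _ => ℕ) 0
      (Nat.mul (force (cellAll n row b F) (pop n)) (ub n row B (b :: F))) (Nat.blt b n) := rfl
    rw [e] at h ⊢
    cases h1 : Nat.blt b n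
    · rw [h1] at h; exact absurd rfl h
    · rw [h1] at h
      have hb : b < n := by simpa using h1
      show _ ≤ force (cellAll n row b F) (pop n) * ub n row B (b :: F)
      rw [card_eq_orb _ (autG E row ⊓ fixG E (b :: F)) (E.pt b) fun g => by
        rw [Subgroup.mem_inf, Subgroup.mem_inf, fixG_cons E hb, and_assoc], force_eq,
        ← ncard_ms E]
      refine Nat.mul_le_mul (Set.ncard_le_ncard ?_ (Set.toFinite _)) (ih _ ?_ ?_)
      · rintro _ ⟨g, hg, rfl⟩
        have := cellAll_spec hg.1 (E.pt b) hF hg.2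
        rwa [E.idx_pt b hb] at this
      · intro f hf
        rcases List.mem_cons.mp hf with rfl | hf
        · exact hb
        · exact hF f hf
      · exact fun h2 => h (by show _ * _ = 0; rw [h2, Nat.mul_zero])

omit [Finite α] in
theorem inH_sel {k : ℕ} (hn : n ≤ 2 ^ k) {H : Subgroup (Perm α)} {L : List ℕ}
    (hL : ∀ p ∈ L, InH E k H p) (I : List ℕ) : ∀ p ∈ sel (idc k n) L I, InH E k H p := by
  induction I with
  | nil => intro p hp; exact absurd hp (by simp [sel])
  | cons i I ih =>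
    intro p hp
    have e : sel (idc k n) L (i :: I) = nth (idc k n) L i :: sel (idc k n) L I := rfl
    rw [e] at hp
    rcases List.mem_cons.mp hp with rfl | hp
    · exact InH.nth hn hL i
    · exact ih p hp

omit [Finite α] in
theorem inH_fix {k : ℕ} {H : Subgroup (Perm α)} {S F : List ℕ} (hS : ∀ p ∈ S, InH E k H p)
    (h : allL S (fun p => fixAll k p F) = true) : ∀ p ∈ S, InH E k (H ⊓ fixG E F) p := by
  intro p hp
  obtain ⟨g, hg, hr⟩ := hS p hp
  refine ⟨g, ⟨hg, fun a ha => E.idx_inj ?_⟩, hr⟩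
  rw [hr]
  exact Nat.eq_of_beq_eq_true ((allL_iff _ _).mp ((allL_iff _ _).mp h p hp) _ ha)

theorem lb_le_card {k : ℕ} (hn : n ≤ 2 ^ k) {H : Subgroup (Perm α)} {L : List ℕ}
    (hL : ∀ p ∈ L, InH E k H p) (lv : List (ℕ × List ℕ × ℕ)) (F : List ℕ) :
    lb k n L lv F ≤ Nat.card ↥(H ⊓ fixG E F) := by
  induction lv generalizing F with
  | nil => exact Nat.card_pos
  | cons x lv ih =>
    have e : lb k n L (x :: lv) F = Bool.rec (motive := fun _ => ℕ) 0
      (Nat.mul (force (orbMask k n (sel (idc k n) L x.2.1) x.2.2 (Nat.shiftLeft 1 x.1)) (pop n))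
        (lb k n L lv (x.1 :: F)))
      (Nat.blt x.1 n && allL (sel (idc k n) L x.2.1) fun p => fixAll k p F) := rfl
    rw [e]
    cases h1 : (Nat.blt x.1 n && allL (sel (idc k n) L x.2.1) fun p => fixAll k p F)
    · exact Nat.zero_le _
    · rw [Bool.and_eq_true] at h1
      have hb : x.1 < n := by simpa using h1.1
      show force _ (pop n) * lb k n L lv (x.1 :: F) ≤ _
      rw [card_eq_orb (H ⊓ fixG E F) (H ⊓ fixG E (x.1 :: F)) (E.pt x.1) fun g => by
        rw [Subgroup.mem_inf, Subgroup.mem_inf, fixG_cons E hb, and_assoc], force_eq,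
        ← ncard_ms E]
      exact Nat.mul_le_mul (Set.ncard_le_ncard
        (fun y hy => orbMask_spec (inH_fix (inH_sel hn hL _) h1.2) _ y hy) (Set.toFinite _)) (ih _)

theorem sign_of_moved [Fintype α] [DecidableEq α] {k p : ℕ} {g : Perm α} (hg : Rep E k p g)
    (h2 : g ^ 2 = 1) (hm : moved k n p % 4 = 2) : Perm.sign g = -1 := by
  have : Fact (Nat.Prime 2) := ⟨Nat.prime_two⟩
  have h1 : g.support.card = moved k n p := by
    unfold moved
    rw [← ncard_ms E, ← Set.ncard_coe_finset]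
    congr 1
    ext a
    simp only [Finset.mem_coe, Perm.mem_support, ms, Set.mem_ofPred_eq]
    rw [testBit_mk_one n _ (fun i _ => by cases Nat.beq (app k p i) i <;> simp) _ (E.idx_lt a),
      ← hg]
    cases h : Nat.beq (E.idx (g a)) (E.idx a)
    · have := Nat.ne_of_beq_eq_false h
      simpa using fun h' => this (by rw [h'])
    · simpa using E.idx_inj (Nat.eq_of_beq_eq_true h)
  have h3 := g.sum_cycleType
  rw [Perm.cycleType_of_pow_prime_eq_one h2, Multiset.sum_replicate, smul_eq_mul, h1] at h3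
  rw [Perm.sign_of_cycleType, g.sum_cycleType, h1]
  exact Odd.neg_one_pow (Nat.odd_iff.mpr (by omega))

theorem simple_of_orbits (K : Subgroup (Perm α)) (b c d : α) (D1 D2 : Set α)
    (htr : ∀ x, ∃ g ∈ K, g b = x) (b1 : b ∈ D1) (b2 : b ∈ D2)
    (h1 : ∀ x ∈ D1, x = b ∨ ∃ g ∈ K, g b = b ∧ g c = x)
    (h2 : ∀ x ∈ D2, x = b ∨ ∃ g ∈ K, g b = b ∧ g d = x)
    (hcov : D1 ∪ D2 = Set.univ) (n1 : ¬ D1.ncard ∣ Nat.card α) (n2 : ¬ D2.ncard ∣ Nat.card α)
    {p e : ℕ} (hp : p.Prime) (hpa : p ^ e ∣ Nat.card α) (hpK : ¬ p ^ (e + 1) ∣ Nat.card K)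
    (hne : Nat.card K ≠ 1)
    (hgen : ∀ H : Subgroup (Perm α), (∀ g ∈ K, g ^ p = 1 → g ∈ H) → K ≤ H) :
    IsSimpleGroup K := by
  have : Nontrivial K := Finite.one_lt_card_iff_nontrivial.mp (by
    have := Nat.card_pos (α := K); omega)
  have hpre : MulAction.IsPretransitive K α := ⟨fun x y => by
    obtain ⟨g, hg, rfl⟩ := htr x
    obtain ⟨h, hh, rfl⟩ := htr y
    exact ⟨⟨h * g⁻¹, K.mul_mem hh (K.inv_mem hg)⟩, by simp [Subgroup.smul_def]⟩⟩
  refine ⟨fun N hN => ?_⟩
  have hO := (MulAction.IsBlock.orbit_of_normal (N := N) b).ncard_dvd_card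
    ⟨b, MulAction.mem_orbit_self b⟩
  have hinv : ∀ g ∈ K, g b = b → ∀ x ∈ MulAction.orbit N b, g x ∈ MulAction.orbit N b := by
    rintro g hg hb _ ⟨m, rfl⟩
    refine ⟨⟨⟨g, hg⟩ * m.1 * ⟨g, hg⟩⁻¹, hN.conj_mem _ m.2 _⟩, ?_⟩
    show g (m.1.1 (g⁻¹ b)) = g (m.1.1 b)
    rw [show g⁻¹ b = b by rw [Perm.inv_eq_iff_eq, hb]]
  have key : ∀ (c : α) (D : Set α), (∀ x ∈ D, x = b ∨ ∃ g ∈ K, g b = b ∧ g c = x) →
      D ⊆ MulAction.orbit N b ∨ ∀ x ∈ D, x ∈ MulAction.orbit N b → x = b := by
    intro c D hD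
    by_contra hc
    push Not at hc
    obtain ⟨hc1, x, hx, hx1, hx2⟩ := hc
    obtain ⟨g, hg, e1, rfl⟩ := (hD x hx).resolve_left hx2
    apply hc1
    intro y hy
    rcases hD y hy with rfl | ⟨h, hh, e2, rfl⟩
    · exact MulAction.mem_orbit_self _
    · have := hinv (h * g⁻¹) (K.mul_mem hh (K.inv_mem hg)) (by
        rw [Perm.mul_apply, show g⁻¹ b = b by rw [Perm.inv_eq_iff_eq, e1], e2]) _ hx1
      simpa using this
  have hc : ∀ x, x ∈ D1 ∨ x ∈ D2 := fun x => (hcov ▸ Set.mem_univ x : x ∈ D1 ∪ D2)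
  rcases key c D1 h1 with k1 | k1 <;> rcases key d D2 h2 with k2 | k2
  · right
    have h3 : MulAction.orbit N b = Set.univ :=
      Set.eq_univ_of_forall fun x => (hc x).elim (k1 ·) (k2 ·)
    have h4 : Nat.card α ∣ Nat.card N := by
      rw [← Set.ncard_univ, ← h3, ← MulAction.index_stabilizer]
      exact Subgroup.index_dvd_card _
    rw [eq_top_iff]
    intro g _
    obtain ⟨g', hg', e1⟩ := hgen (N.map K.subtype) (fun a ha hap => ⟨⟨a, ha⟩, by
      rw [SetLike.mem_coe, ← QuotientGroup.eq_one_iff, ← orderOf_eq_one_iff]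
      have h5 : orderOf ((⟨a, ha⟩ : K) : K ⧸ N) ∣ p := orderOf_dvd_of_pow_eq_one (by
        rw [← QuotientGroup.mk_pow, show (⟨a, ha⟩ : K) ^ p = 1 from Subtype.ext hap,
          QuotientGroup.mk_one])
      refine ((Nat.dvd_prime hp).mp h5).resolve_right fun h => hpK ?_
      rw [pow_succ', Subgroup.card_eq_card_quotient_mul_card_subgroup N]
      exact Nat.mul_dvd_mul (h ▸ orderOf_dvd_natCard _) (hpa.trans h4), rfl⟩) g.2
    rwa [← show g' = g from Subtype.ext e1]
  · refine absurd hO ?_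
    rwa [show MulAction.orbit N b = D1 from Set.Subset.antisymm
      (fun x hx => (hc x).elim id fun h => k2 x h hx ▸ b1) k1]
  · refine absurd hO ?_
    rwa [show MulAction.orbit N b = D2 from Set.Subset.antisymm
      (fun x hx => (hc x).elim (fun h => k1 x h hx ▸ b2) id) k2]
  · left
    rw [eq_bot_iff]
    intro m hm
    refine Subgroup.mem_bot.mpr (Subtype.ext (Perm.ext fun x => ?_))
    obtain ⟨g, hg, rfl⟩ := htr x
    have h3 : (g⁻¹ * m.1 * g) b ∈ MulAction.orbit N b :=
      ⟨⟨⟨g⁻¹ * m.1 * g, K.mul_mem (K.mul_mem (K.inv_mem hg) m.2) hg⟩,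
        hN.conj_mem' _ hm ⟨g, hg⟩⟩, rfl⟩
    have h4 := (hc _).elim (k1 _ · h3) (k2 _ · h3)
    rw [Perm.mul_apply, Perm.mul_apply, Perm.inv_eq_iff_eq] at h4
    exact h4

theorem simple_of_rk3 {k : ℕ} (hn : n ≤ 2 ^ k) {K : Subgroup (Perm α)} {L : List ℕ}
    (hL : ∀ p ∈ L, InH E k K p) {I0 I1 : List ℕ} {t b c d : ℕ}
    (h : rk3 k n L I0 I1 t b c d = true)
    {p e : ℕ} (hp : p.Prime) (hpa : p ^ e ∣ n) (hpK : ¬ p ^ (e + 1) ∣ Nat.card K)
    (hne : Nat.card K ≠ 1)
    (hgen : ∀ H : Subgroup (Perm α), (∀ g ∈ K, g ^ p = 1 → g ∈ H) → K ≤ H) :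
    IsSimpleGroup K := by
  unfold rk3 at h
  rw [force_eq, force_eq] at h
  simp only [Bool.and_eq_true, Bool.not_eq_true'] at h
  obtain ⟨⟨⟨h1, h2⟩, h3⟩, ⟨h4, h5⟩, h6⟩ := h
  have hb : b < n := by simpa using h1
  have hS := inH_fix (inH_sel hn hL I1) h3
  have key : ∀ c, E.pt b ∈ ms E (Nat.lor (Nat.shiftLeft 1 b)
      (orbMask k n (sel (idc k n) L I1) t (Nat.shiftLeft 1 c))) ∧
      ∀ x ∈ ms E (Nat.lor (Nat.shiftLeft 1 b)
        (orbMask k n (sel (idc k n) L I1) t (Nat.shiftLeft 1 c))),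
        x = E.pt b ∨ ∃ g ∈ K, g (E.pt b) = E.pt b ∧ g (E.pt c) = x := by
    intro c
    constructor
    · show ((1 <<< b) ||| _).testBit _ = true
      rw [Nat.testBit_or, E.idx_pt b hb, Nat.one_shiftLeft, Nat.testBit_two_pow_self]; rfl
    · intro x hx
      have hx' : ((1 <<< b) ||| orbMask k n (sel (idc k n) L I1) t
        (Nat.shiftLeft 1 c)).testBit (E.idx x) = true := hx
      rw [Nat.testBit_or, Bool.or_eq_true, Nat.one_shiftLeft, Nat.testBit_two_pow,
        decide_eq_true_eq] at hx'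
      rcases hx' with h7 | h7
      · left; rw [h7, E.pt_idx]
      · obtain ⟨g, hg, e1⟩ := orbMask_spec hS t x h7
        exact Or.inr ⟨g, hg.1, ((fixG_cons E hb _ g).mp hg.2).2, e1⟩
  refine simple_of_orbits K (E.pt b) (E.pt c) (E.pt d) _ _ (fun x => ?_) (key c).1 (key d).1
    (key c).2 (key d).2 ?_ ?_ ?_ hp (by rwa [card_eq_enc E]) hpK hne hgen
  · refine orbMask_spec (inH_sel hn hL I0) t x ?_
    rw [Nat.eq_of_beq_eq_true h2, testBit_full, decide_eq_true (E.idx_lt _)]
  · rw [← ms_full E, ← Nat.eq_of_beq_eq_true h4]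
    ext x
    exact (Bool.or_eq_true _ _).symm.to_iff.trans (by rw [← Nat.testBit_or]; rfl)
  · rw [ncard_ms, card_eq_enc E, Nat.dvd_iff_mod_eq_zero]
    exact Nat.ne_of_beq_eq_false h5
  · rw [ncard_ms, card_eq_enc E, Nat.dvd_iff_mod_eq_zero]
    exact Nat.ne_of_beq_eq_false h6

/-- The main certificate theorem. -/
theorem exists_simple (E : Enc α n) {k : ℕ} (hn : n ≤ 2 ^ k) (row : ℕ → ℕ) (x y t : ℕ)
    (px : isPerm k n x = true) (pt : isPerm k n t = true)
    (ix : InvOn k n x row n) (it : InvOn k n t row n) (hy : comp k n t (comp k n x t) = y)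
    {p e m : ℕ} (hp : p.Prime) (hp2 : p % 2 = 1) (ox : powc k n x p = idc k n)
    (ot : powc k n t 2 = idc k n) (mt : moved k n t % 4 = 2)
    {B : List ℕ} (hub : ub n row B [] = 2 * m) (hm : 1 < m)
    {prog : List (ℕ × ℕ)} {lv : List (ℕ × List ℕ × ℕ)} {I0 I1 : List ℕ} {r b c d : ℕ}
    (hlb : (Nat.beq (lb k n (slp k n prog [x, y]) lv []) m &&
      rk3 k n (slp k n prog [x, y]) I0 I1 r b c d) = true)
    (hpa : p ^ e ∣ n) (hpm : ¬ p ^ (e + 1) ∣ m) :
    ∃ K : Subgroup (Perm α), IsSimpleGroup K ∧ Nat.card K = m := by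
  classical
  have := Fintype.ofFinite α
  obtain ⟨gx, rx⟩ := exists_rep_of_isPerm E px
  obtain ⟨gt, rt⟩ := exists_rep_of_isPerm E pt
  have ry : Rep E k y (gt * (gx * gt)) := hy ▸ rt.comp (rx.comp rt)
  have ex := rx.pow_eq_one hn ox
  have et := rt.pow_eq_one hn ot
  have ey : (gt * (gx * gt)) ^ p = 1 := by
    have : gt * (gx * gt) = gt * gx * gt⁻¹ := by
      rw [mul_assoc, show gt⁻¹ = gt from inv_eq_of_mul_eq_one_right (by rw [← pow_two, et])]
    rw [this, conj_pow, ex, mul_one, mul_inv_cancel]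
  have st := sign_of_moved rt et mt
  let K := Subgroup.closure {gx, gt * (gx * gt)}
  have hL : ∀ q ∈ slp k n prog [x, y], InH E k K q := InH.slp hn prog fun q hq => by
    simp only [List.mem_cons, List.not_mem_nil, or_false] at hq
    rcases hq with rfl | rfl
    · exact ⟨gx, Subgroup.subset_closure (by simp), rx⟩
    · exact ⟨_, Subgroup.subset_closure (by simp), ry⟩
  rw [Bool.and_eq_true] at hlb
  have h1 := lb_le_card hn hL lv []
  rw [Nat.eq_of_beq_eq_true hlb.1, fixG_nil, inf_top_eq] at h1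
  have h2 := card_le_ub (E := E) (row := row) B [] (by simp) (by omega)
  rw [hub, fixG_nil, inf_top_eq] at h2
  have ax := mem_autG rx ix
  have at' := mem_autG rt it
  have h3 : K ≤ autG E row := (Subgroup.closure_le _).mpr (by
    rintro g (rfl | rfl)
    · exact ax
    · exact mul_mem at' (mul_mem ax at'))
  have h4 : K ≤ alternatingGroup α := (Subgroup.closure_le _).mpr (by
    have hx : Perm.sign gx = 1 := by
      have := congrArg Perm.sign ex
      rw [map_pow, map_one] at this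
      rcases Int.units_eq_one_or (Perm.sign gx) with h | h
      · exact h
      · rw [h, Odd.neg_one_pow (Nat.odd_iff.mpr hp2)] at this
        exact absurd this (by decide)
    rintro g (rfl | rfl)
    · exact hx
    · show Perm.sign _ = 1
      rw [map_mul, map_mul, hx, st]; rfl)
  have h5 : Nat.card K = m := by
    obtain ⟨j, hj⟩ := Subgroup.card_dvd_of_le h3
    have h6 : j ≠ 1 := by
      rintro rfl
      have := Subgroup.eq_of_le_of_card_ge h3 (by omega)
      have h7 : Perm.sign gt = 1 := h4 (this ▸ at')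
      rw [st] at h7
      exact absurd h7 (by decide)
    have h7 : j ≠ 0 := by
      rintro rfl
      have := Nat.card_pos (α := autG E row)
      omega
    have : Nat.card K * 2 ≤ Nat.card K * j := Nat.mul_le_mul_left _ (by omega)
    omega
  refine ⟨K, simple_of_rk3 hn hL hlb.2 hp hpa (by rwa [h5]) (by omega) fun H hH => ?_, h5⟩
  refine (Subgroup.closure_le _).mpr ?_
  rintro g (rfl | rfl)
  · exact hH _ (Subgroup.subset_closure (by simp)) ex
  · exact hH _ (Subgroup.subset_closure (by simp)) ey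

/-- the standard enumeration of `Fin n` -/
def finEnc (n : ℕ) [NeZero n] : Enc (Fin n) n where
  idx := Fin.val
  pt := fun i => Fin.ofNat n i
  idx_lt := Fin.isLt
  pt_idx := fun a => Fin.ext (Nat.mod_eq_of_lt a.isLt)
  idx_pt := fun _ h => Nat.mod_eq_of_lt h

end Cfsg.Lib.Rank3
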