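import Cfsg.Agent.Lib.Rank3.SuzInvX
import Cfsg.Agent.Lib.Rank3.SuzInvT

/-! The sporadic Suzuki group as a group of permutations of 1782 points. -/

set_option autoImplicit false

namespace Cfsg.Lib.Rank3

open Cfsg.Lib.PC

theorem suz_ub : ub 1782 suzR.get [0, 136, 140, 203, 1275, 1348, 1447, 1615, 100, 156, 3, 495, 139, 65, 380, 306, 185, 260, 110, 64, 131, 166, 189, 159, 63, 4, 1] [] = 2 * 448345497600 := by
  decide +kernel

/-- the straight-line program -/
def suzProg : List (ℕ × ℕ) := [(0, 0), (2, 1), (0, 2), (0, 2), (5, 5), (0, 6), (0, 0), (0, 3), (7, 8), (0, 0), (9, 11), (11, 12), (7, 0), (0, 2), (0, 4), (7, 7), (0, 8), (9, 2), (2, 0), (0, 2), (5, 5), (0, 0), (7, 14), (0, 0), (0, 2), (5, 0), (1, 1), (0, 1), (3, 8), (9, 9), (0, 10), (0, 2), (4, 0), (1, 1), (0, 2), (0, 2), (4, 8), (0, 5), (0, 4), (3, 3), (1, 4), (0, 0), (1, 2), (0, 1)]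

theorem suz_lb : (Nat.beq (lb 11 1782 (slp 11 1782 suzProg [suzx, (comp 11 1782 suzt (comp 11 1782 suzx suzt))])
    [(0, [44, 45], 10), (136, [36, 29], 9), (140, [24, 19], 6), (203, [16, 12], 5), (1275, [8, 5], 3), (1348, [4, 3], 2), (1447, [4, 0], 2), (1615, [4], 1)] []) 448345497600 &&
    rk3 11 1782 (slp 11 1782 suzProg [suzx, (comp 11 1782 suzt (comp 11 1782 suzx suzt))]) [44, 45] [36, 29] 10 0 136 1) = true := by
  decide +kernel

theorem suz_px : isPerm 11 1782 suzx = true := by decide +kernel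
theorem suz_pt : isPerm 11 1782 suzt = true := by decide +kernel
theorem suz_ox : powc 11 1782 suzx 11 = idc 11 1782 := by decide +kernel
theorem suz_ot : powc 11 1782 suzt 2 = idc 11 1782 := by decide +kernel
theorem suz_mt : moved 11 1782 suzt % 4 = 2 := by decide +kernel

set_option maxRecDepth 100000 in
theorem exists_suz : ∃ K : Subgroup (Equiv.Perm (Fin 1782)), IsSimpleGroup K ∧
    Nat.card K = 448345497600 :=
  exists_simple (finEnc 1782) (k := 11) (by norm_num) suzR.get suzx _ suzt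
    suz_px suz_pt suz_inv_x suz_inv_t (Eq.refl _)
    (p := 11) (e := 1) (by norm_num) (by norm_num) suz_ox suz_ot suz_mt
    suz_ub (by norm_num) suz_lb (by norm_num) (by norm_num)

end Cfsg.Lib.Rank3
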